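import Cfsg.Agent.UnitFive.Data
import Mathlib.LinearAlgebra.Matrix.Determinant.Basic
import Mathlib.Tactic.FinCases

/-!
Kernel checks on the explicit data for `3.A₇` in `SU₃(5)`.
-/

set_option autoImplicit false
set_option maxRecDepth 10000

namespace CfsgLib.UnitFive

theorem nodes_zero : nodes 0 = 1 := by decide +kernel

theorem nodes_step : ∀ i : Fin 308, i ≠ 0 → (steps i).1 < i ∧
    nodes i = nodes (steps i).1 * (if (steps i).2 then genA else genB) := by decide +kernel

theorem eight_mul : ∀ i j : Fin 8,
    nodes (eightIdx i) * nodes (eightIdx j) = nodes (eightIdx (eightTable i j)) := by decide +kernel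

theorem eight_zero : nodes (eightIdx 0) = 1 := by decide +kernel

theorem eight_inj : ∀ i j : Fin 8, nodes (eightIdx i) = nodes (eightIdx j) → i = j := by
  decide +kernel

theorem twentySeven_mul : ∀ i j : Fin 27,
    nodes (twentySevenIdx i) * nodes (twentySevenIdx j) =
      nodes (twentySevenIdx (twentySevenTable i j)) := by decide +kernel

theorem twentySeven_zero : nodes (twentySevenIdx 0) = 1 := by decide +kernel

theorem twentySeven_inj : ∀ i j : Fin 27,
    nodes (twentySevenIdx i) = nodes (twentySevenIdx j) → i = j := by decide +kernel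

theorem order_five : nodes order5Idx ^ 5 = 1 ∧ nodes order5Idx ≠ 1 := by decide +kernel

theorem order_seven : nodes order7Idx ^ 7 = 1 ∧ nodes order7Idx ≠ 1 := by decide +kernel

theorem genA_det : genA.det = 1 := by rw [Matrix.det_fin_three]; decide +kernel

theorem genB_det : genB.det = 1 := by rw [Matrix.det_fin_three]; decide +kernel

theorem genA_unitary : ∀ i j : Fin 3,
    ∑ k, genA k i * (genA k j * genA k j * genA k j * genA k j * genA k j) = if i = j then 1 else 0 := by
  decide +kernel

theorem genB_unitary : ∀ i j : Fin 3,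
    ∑ k, genB k i * (genB k j * genB k j * genB k j * genB k j * genB k j) = if i = j then 1 else 0 := by
  decide +kernel

theorem genA_orbit : ∀ i : Fin 105,
    Matrix.mulVec genA (orbVec i) = (imgA i).2 • orbVec (imgA i).1 := by decide +kernel

theorem genB_orbit : ∀ i : Fin 105,
    Matrix.mulVec genB (orbVec i) = (imgB i).2 • orbVec (imgB i).1 := by decide +kernel

theorem img_ne_zero : ∀ i : Fin 105, (imgA i).2 ≠ 0 ∧ (imgB i).2 ≠ 0 := by decide +kernel

theorem orbVec_norm : ∀ i : Fin 105, ∑ k, orbVec i k *
    (orbVec i k * orbVec i k * orbVec i k * orbVec i k * orbVec i k) = 1 := by decide +kernel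

theorem outVec_norm : ∑ k, outVec k *
    (outVec k * outVec k * outVec k * outVec k * outVec k) = 1 := by decide +kernel

theorem outVec_indep : ∀ i : Fin 105, ∃ a b : Fin 3,
    outVec a * orbVec i b - outVec b * orbVec i a ≠ 0 := by decide +kernel

theorem exists_inv : ∀ a b : ZMod 5, (a, b) ≠ (0, 0) →
    ∃ c d : ZMod 5, (⟨a, b⟩ : R25) * ⟨c, d⟩ = 1 := by decide +kernel

end CfsgLib.UnitFive
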