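import Mathlib

/-!
A quasisimple group of order 378000 acting on 126 points like `SU₃(5)` has no proper subgroup of
index less than 50 containing the centre: orbit lengths of Sylow 5-subgroups and the Sylow 7-counts
leave no possible order.
-/

set_option autoImplicit false
set_option maxRecDepth 10000

namespace CfsgLib.UnitFive

variable {G Ω : Type*} [Group G] [Finite G] [MulAction G Ω] [Finite Ω]

/-- The arithmetic conditions on a point orbit of length `O` for a subgroup of order `c`. -/
def Admissible (c O : ℕ) : Prop :=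
  3 * O ∣ c ∧ c ∣ 3000 * O ∧ (125 ∣ c → O % 125 = 1) ∧ (25 ∣ c → O % 25 = 1) ∧
    (5 ∣ c → O % 5 = 1) ∧ 5 ∣ c ∧
    (7 ∣ c → (c % 21 = 0 ∧ (c / 21) % 7 = 1) ∨ (c % 63 = 0 ∧ (c / 63) % 7 = 1))

instance (c O : ℕ) : Decidable (Admissible c O) := by unfold Admissible; infer_instance

/-- The numerical core: no index `k` in `[15, 50)` is consistent. -/
theorem index_numeric : ∀ k < 50, ∀ O < 127,
    15 ≤ k → k ∣ 378000 → ¬ Admissible (378000 / k) O := by
  decide +kernel

theorem normalizer_numeric : ∀ N < 379, N ∣ 378 → 21 ∣ N → 378000 / N % 7 = 1 → N = 63 := by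
  decide +kernel

theorem factorial_numeric : ∀ k < 15, ¬ 378000 ∣ 3 * k.factorial := by decide +kernel

omit [Finite Ω] in
/-- Orbit lengths modulo a subgroup of fixed-point-free 5-elements. -/
theorem orbit_modEq [Finite Ω] (hfix : ∀ (u : G) (j : ℕ), u ^ 5 ^ j = 1 → u ≠ 1 → ∀ a b : Ω,
      u • a = a → u • b = b → a = b)
    (H R : Subgroup G) (hRH : R ≤ H) (hR : IsPGroup 5 ↥R) {a : Ω} (ha : ∀ r ∈ R, r • a = a) :
    Nat.card ↥(MulAction.orbit ↥H a) ≡ 1 [MOD Nat.card ↥R] := by
  classical
  set R' := R.subgroupOf H with hR'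
  have hcardR : Nat.card ↥R' = Nat.card ↥R :=
    Nat.card_congr (Subgroup.subgroupOfEquivOfLe hRH).toEquiv
  haveI := Fintype.ofFinite ↥R'
  haveI := Fintype.ofFinite ↥(MulAction.orbit ↥H a)
  haveI : ∀ r : ↥R', Fintype (MulAction.fixedBy ↥(MulAction.orbit ↥H a) r) :=
    fun r => Fintype.ofFinite _
  haveI : Fintype (MulAction.orbitRel.Quotient ↥R' ↥(MulAction.orbit ↥H a)) := Fintype.ofFinite _
  have h := MulAction.sum_card_fixedBy_eq_card_orbits_mul_card_group ↥R' ↥(MulAction.orbit ↥H a)
  have hone : ∀ r : ↥R', r ≠ 1 →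
      Fintype.card (MulAction.fixedBy ↥(MulAction.orbit ↥H a) r) = 1 := by
    intro r hr
    rw [Fintype.card_eq_one_iff]
    refine ⟨⟨⟨a, MulAction.mem_orbit_self a⟩, Subtype.ext (ha _ r.2)⟩, ?_⟩
    rintro ⟨⟨b, hb⟩, hrb⟩
    obtain ⟨j, hj⟩ := hR ⟨((r : ↥H) : G), r.2⟩
    refine Subtype.ext (Subtype.ext (hfix ((r : ↥H) : G) j (congrArg Subtype.val hj) ?_ b a ?_ (ha _ r.2)))
    · intro he
      exact hr (Subtype.ext (Subtype.ext he))
    · exact congrArg Subtype.val hrb
  rw [← Finset.sum_erase_add _ _ (Finset.mem_univ (1 : ↥R')), Finset.sum_congr rfl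
    (fun r hr => hone r (Finset.ne_of_mem_erase hr)), Finset.sum_const, Finset.card_erase_of_mem
    (Finset.mem_univ _), Finset.card_univ, smul_eq_mul, mul_one] at h
  have h1 : Fintype.card (MulAction.fixedBy ↥(MulAction.orbit ↥H a) (1 : ↥R')) =
      Nat.card ↥(MulAction.orbit ↥H a) := by
    rw [Nat.card_eq_fintype_card]
    exact Fintype.card_congr (Equiv.subtypeUnivEquiv fun x => one_smul ↥R' x)
  rw [h1, ← Nat.card_eq_fintype_card (α := ↥R'), hcardR] at h
  have hpos : 0 < Nat.card ↥R := Nat.card_pos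
  -- `(|R| - 1) + |O| = m |R|`
  rw [Nat.modEq_iff_dvd]
  refine ⟨1 - (Fintype.card (MulAction.orbitRel.Quotient ↥R' ↥(MulAction.orbit ↥H a)) : ℤ), ?_⟩
  have hz : ((Nat.card ↥R - 1 : ℕ) : ℤ) + (Nat.card ↥(MulAction.orbit ↥H a) : ℤ) =
      (Fintype.card (MulAction.orbitRel.Quotient ↥R' ↥(MulAction.orbit ↥H a)) : ℤ) * (Nat.card ↥R : ℤ) := by
    exact_mod_cast h
  rw [Nat.cast_sub (by omega)] at hz
  push_cast at hz ⊢
  linear_combination -hz

variable [MulAction.IsPretransitive G Ω]

/-- The standing facts about the group and its action. -/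
structure Hyp (G Ω : Type*) [Group G] [MulAction G Ω] : Prop where
  card_group : Nat.card G = 378000
  card_center : Nat.card (Subgroup.center G) = 3
  card_points : Nat.card Ω = 126
  quasi : ∀ N : Subgroup G, N.Normal → N ≤ Subgroup.center G ∨ N = ⊤
  fix_five : ∀ (u : G) (j : ℕ), u ^ 5 ^ j = 1 → u ≠ 1 → ∀ a b : Ω, u • a = a → u • b = b → a = b
  no_seven : ∀ y t : G, orderOf y = 7 → orderOf t = 2 → ¬ Commute y t

theorem Hyp.card_stabilizer (h : Hyp G Ω) (a : Ω) :
    Nat.card (MulAction.stabilizer G a) = 3000 := by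
  have e := (MulAction.stabilizer G a).card_mul_index
  rw [MulAction.index_stabilizer_of_transitive, h.card_points, h.card_group] at e
  omega

theorem Hyp.center_fixes (h : Hyp G Ω) {z : G} (hz : z ∈ Subgroup.center G) (a : Ω) : z • a = a := by
  haveI : Fact (Nat.Prime 5) := ⟨by norm_num⟩
  obtain ⟨u, hu⟩ := exists_prime_orderOf_dvd_card' (G := ↥(MulAction.stabilizer G a)) 5
    (by rw [h.card_stabilizer a]; norm_num)
  have hu5 : orderOf (u : G) = 5 := by rw [Subgroup.orderOf_coe, hu]
  refine h.fix_five u 1 (by rw [pow_one, ← hu5, pow_orderOf_eq_one]) ?_ _ _ ?_ u.2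
  · intro he
    rw [he, orderOf_one] at hu5
    norm_num at hu5
  · rw [← mul_smul, Subgroup.mem_center_iff.mp hz (u : G), mul_smul]
    exact congrArg (z • ·) u.2

theorem Hyp.five_seven (h : Hyp G Ω) {y u : G} (hy : orderOf y = 7) (hu : orderOf u = 5) :
    ¬ Commute u y := by
  intro hc
  haveI : Fact (Nat.Prime 5) := ⟨by norm_num⟩
  have hR : IsPGroup 5 ↥(Subgroup.zpowers u) := IsPGroup.of_card (n := 1) (by rw [Nat.card_zpowers, hu, pow_one])
  haveI : Nonempty Ω := (Nat.card_pos_iff.mp (by rw [h.card_points]; norm_num)).1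
  obtain ⟨a, ha⟩ := hR.nonempty_fixed_point_of_prime_not_dvd_card Ω (by rw [h.card_points]; norm_num)
  have hua : u • a = a := ha ⟨u, Subgroup.mem_zpowers u⟩
  have hya : y • a = a := h.fix_five u 1 (by rw [pow_one, ← hu, pow_orderOf_eq_one])
    (by intro he; rw [he, orderOf_one] at hu; norm_num at hu) _ _
    (by rw [← mul_smul, hc.eq, mul_smul, hua]) hua
  have hd := Subgroup.orderOf_dvd_natCard (MulAction.stabilizer G a) (show y ∈ MulAction.stabilizer G a from hya)
  rw [hy, h.card_stabilizer a] at hd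
  norm_num at hd

/-- The normalizer of a subgroup of order 7 has order 63. -/
theorem Hyp.card_normalizer_seven (h : Hyp G Ω) (Y : Subgroup G) (hY : Nat.card Y = 7) :
    Nat.card (Subgroup.normalizer (Y : Set G)) = 63 := by
  haveI : Fact (Nat.Prime 7) := ⟨by norm_num⟩
  haveI : IsCyclic ↥Y := isCyclic_of_prime_card hY
  obtain ⟨y, hy⟩ := exists_prime_orderOf_dvd_card' (G := ↥Y) 7 (by rw [hY])
  have hy7 : orderOf (y : G) = 7 := by rw [Subgroup.orderOf_coe, hy]
  set N := Subgroup.normalizer (Y : Set G) with hN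
  set C := Subgroup.centralizer (Y : Set G) with hC
  have hCN : C ≤ N := Subgroup.centralizer_le_normalizer _
  -- 2 and 5 do not divide the order of the centralizer
  have hno : ∀ p : ℕ, p.Prime → (p = 2 ∨ p = 5) → ¬ p ∣ Nat.card C := by
    intro p hp hpp hd
    haveI : Fact p.Prime := ⟨hp⟩
    obtain ⟨t, ht⟩ := exists_prime_orderOf_dvd_card' (G := ↥C) p hd
    have hto : orderOf (t : G) = p := by rw [Subgroup.orderOf_coe, ht]
    have hct : Commute (y : G) t := Subgroup.mem_centralizer_iff.mp t.2 _ y.2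
    rcases hpp with rfl | rfl
    · exact h.no_seven _ _ hy7 hto hct
    · exact h.five_seven hy7 hto hct.symm
  have hC189 : Nat.card C ∣ 189 := by
    have hdvd : Nat.card C ∣ 2000 * 189 := by
      have := Subgroup.card_subgroup_dvd_card C
      rwa [h.card_group] at this
    refine Nat.Coprime.dvd_of_dvd_mul_left ?_ hdvd
    rw [show (2000 : ℕ) = 2 ^ 4 * 5 ^ 3 by norm_num]
    refine Nat.Coprime.mul_right (Nat.Coprime.pow_right _ ?_) (Nat.Coprime.pow_right _ ?_)
    · exact Nat.coprime_comm.mp ((Nat.Prime.coprime_iff_not_dvd (by norm_num)).mpr (hno 2 (by norm_num) (Or.inl rfl)))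
    · exact Nat.coprime_comm.mp ((Nat.Prime.coprime_iff_not_dvd (by norm_num)).mpr (hno 5 (by norm_num) (Or.inr rfl)))
  have hNC : Nat.card N ∣ 6 * Nat.card C := by
    have hker := (C.subgroupOf N).card_mul_index
    rw [Nat.card_congr (Subgroup.subgroupOfEquivOfLe hCN).toEquiv] at hker
    rw [← hker, mul_comm 6]
    refine mul_dvd_mul_left _ ?_
    have hk : C.subgroupOf N = (Subgroup.normalizerMonoidHom Y).ker :=
      (Subgroup.normalizerMonoidHom_ker Y).symm
    rw [hk, Subgroup.index_ker]
    refine (Subgroup.card_subgroup_dvd_card _).trans ?_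
    rw [IsCyclic.card_mulAut, hY]
    decide
  have hN7 : Nat.card N ∣ 378 := by
    have h1 : Nat.card N ∣ 1134 := hNC.trans (by simpa using mul_dvd_mul_left 6 hC189)
    have h2 : Nat.card N ∣ 378000 := h.card_group ▸ Subgroup.card_subgroup_dvd_card N
    exact (Nat.dvd_gcd h1 h2).trans (by norm_num)
  have h21 : 21 ∣ Nat.card N := by
    refine Nat.Coprime.mul_dvd_of_dvd_of_dvd (m := 3) (n := 7) (by norm_num) ?_ ?_
    · rw [← h.card_center]
      refine Subgroup.card_dvd_of_le ?_
      exact le_trans (Subgroup.center_le_centralizer _) hCN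
    · rw [← hY]
      exact Subgroup.card_dvd_of_le Subgroup.le_normalizer
  -- Sylow counting
  have hcop : ¬ 49 ∣ Nat.card G := by rw [h.card_group]; norm_num
  have hpg : IsPGroup 7 ↥Y := IsPGroup.of_card (n := 1) (by rw [hY, pow_one])
  obtain ⟨P, hP⟩ := hpg.exists_le_sylow
  have hPY : (P : Subgroup G) = Y := by
    refine (Subgroup.eq_of_le_of_card_ge hP ?_).symm
    obtain ⟨n, hn⟩ := P.isPGroup'.exists_card_eq
    rw [hn, hY]
    have hd : 7 ^ n ∣ Nat.card G := hn ▸ Subgroup.card_subgroup_dvd_card _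
    by_contra hlt
    apply hcop
    refine dvd_trans ?_ hd
    rw [show 49 = 7 ^ 2 by norm_num]
    refine pow_dvd_pow 7 ?_
    by_contra hn2
    have : 7 ^ n ≤ 7 ^ 1 := Nat.pow_le_pow_right (by norm_num) (by omega)
    omega
  have hmod := card_sylow_modEq_one 7 G
  rw [P.card_eq_index_normalizer, show (P : Set G) = (Y : Set G) from congrArg SetLike.coe hPY,
    ← hN] at hmod
  have hidx := N.card_mul_index
  rw [h.card_group] at hidx
  have hNpos : 0 < Nat.card N := Nat.card_pos
  have hi : N.index = 378000 / Nat.card N := by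
    rw [← hidx, Nat.mul_div_cancel_left _ hNpos]
  rw [hi] at hmod
  exact normalizer_numeric _ (by have := Nat.le_of_dvd (by norm_num) hN7; omega) hN7 h21 hmod

theorem Hyp.fifty_le_index (h : Hyp G Ω) (H : Subgroup G) (hZ : Subgroup.center G ≤ H)
    (hH : H ≠ ⊤) : 50 ≤ H.index := by
  classical
  by_contra hlt
  rw [not_le] at hlt
  have hmul := H.card_mul_index
  rw [h.card_group] at hmul
  have hkpos : 0 < H.index := Nat.pos_of_ne_zero H.index_ne_zero_of_finite
  have hcard : Nat.card H = 378000 / H.index := by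
    rw [← hmul, Nat.mul_div_cancel _ hkpos]
  have hk15 : 15 ≤ H.index := by
    by_contra hk
    apply factorial_numeric H.index (by omega)
    have hcore : H.normalCore ≤ Subgroup.center G := by
      rcases h.quasi _ H.normalCore_normal with h1 | h1
      · exact h1
      · exact absurd (top_le_iff.mp (h1 ▸ H.normalCore_le)) hH
    have e := H.normalCore.card_mul_index
    rw [h.card_group] at e
    rw [← e]
    refine mul_dvd_mul (h.card_center ▸ Subgroup.card_dvd_of_le hcore) ?_
    rw [Subgroup.normalCore_eq_ker, Subgroup.index_ker]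
    refine (Subgroup.card_subgroup_dvd_card _).trans ?_
    rw [Nat.card_perm, ← Subgroup.index_eq_card]
  haveI : Fact (Nat.Prime 5) := ⟨by norm_num⟩
  obtain ⟨R⟩ : Nonempty (Sylow 5 ↥H) := inferInstance
  set R₀ : Subgroup G := (R : Subgroup ↥H).map H.subtype with hR₀
  have hR : IsPGroup 5 ↥R₀ := R.isPGroup'.map _
  have hcR : Nat.card R₀ = Nat.card (R : Subgroup ↥H) :=
    Subgroup.card_map_of_injective H.subtype_injective
  have h5H : 5 ∣ Nat.card H := by
    have hd : 5 ^ 3 ∣ Nat.card H * H.index := by rw [hmul]; norm_num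
    by_contra hn
    have := Nat.Coprime.dvd_of_dvd_mul_left
      (Nat.Coprime.pow_left 3 ((Nat.Prime.coprime_iff_not_dvd (by norm_num)).mpr hn)) hd
    have := Nat.le_of_dvd hkpos this
    norm_num at this
    omega
  haveI : Nonempty Ω := (Nat.card_pos_iff.mp (by rw [h.card_points]; norm_num)).1
  obtain ⟨a, ha⟩ := hR.nonempty_fixed_point_of_prime_not_dvd_card Ω (by rw [h.card_points]; norm_num)
  have ha' : ∀ r ∈ R₀, r • a = a := fun r hr => ha ⟨r, hr⟩
  have hO := orbit_modEq h.fix_five H R₀ (Subgroup.map_subtype_le _) hR ha'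
  have hOle : Nat.card ↥(MulAction.orbit ↥H a) ≤ 126 := by
    rw [← h.card_points]
    exact Nat.card_le_card_of_injective _ Subtype.val_injective
  have hOS := (MulAction.stabilizer ↥H a).card_mul_index
  rw [MulAction.index_stabilizer, ← Nat.card_coe_set_eq] at hOS
  set O := Nat.card ↥(MulAction.orbit ↥H a) with hOdef
  have hS3000 : Nat.card (MulAction.stabilizer ↥H a) ∣ 3000 := by
    rw [← h.card_stabilizer a, ← Subgroup.card_map_of_injective H.subtype_injective]
    refine Subgroup.card_dvd_of_le ?_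
    rintro _ ⟨x, hx, rfl⟩
    exact hx
  have hS3 : 3 ∣ Nat.card (MulAction.stabilizer ↥H a) := by
    rw [← h.card_center, ← Nat.card_congr (Subgroup.subgroupOfEquivOfLe hZ).toEquiv]
    exact Subgroup.card_dvd_of_le fun z hz => h.center_fixes hz a
  -- Sylow 5 part
  have hRdvd : ∀ j : ℕ, 5 ^ j ∣ Nat.card H → O % 5 ^ j = 1 % 5 ^ j := by
    intro j hj
    have hdvd : 5 ^ j ∣ Nat.card R₀ := hcR ▸ R.pow_dvd_card_of_pow_dvd_card hj
    exact (Nat.ModEq.of_dvd hdvd hO)
  -- Sylow 7 part
  have h7 : 7 ∣ Nat.card H → (Nat.card H % 21 = 0 ∧ (Nat.card H / 21) % 7 = 1) ∨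
      (Nat.card H % 63 = 0 ∧ (Nat.card H / 63) % 7 = 1) := by
    intro h7H
    haveI : Fact (Nat.Prime 7) := ⟨by norm_num⟩
    obtain ⟨S⟩ : Nonempty (Sylow 7 ↥H) := inferInstance
    have hS7 : Nat.card (S : Subgroup ↥H) = 7 := by
      obtain ⟨n, hn⟩ := S.isPGroup'.exists_card_eq
      have h1 : 7 ∣ 7 ^ n := by
        rw [← hn]
        have := S.pow_dvd_card_of_pow_dvd_card (n := 1) (by simpa using h7H)
        simpa using this
      have h2 : 7 ^ n ∣ 378000 := by
        rw [← hn, ← h.card_group]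
        exact (Subgroup.card_subgroup_dvd_card _).trans (Subgroup.card_subgroup_dvd_card H)
      rcases n with _ | _ | n
      · norm_num at h1
      · rw [hn]; norm_num
      · exfalso
        have : 7 ^ 2 ∣ 378000 := (pow_dvd_pow 7 (by omega)).trans h2
        norm_num at this
    set Y : Subgroup G := (S : Subgroup ↥H).map H.subtype with hYdef
    have hY : Nat.card Y = 7 := by rw [hYdef, Subgroup.card_map_of_injective H.subtype_injective, hS7]
    have hN := h.card_normalizer_seven Y hY
    have hmod := card_sylow_modEq_one 7 ↥H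
    rw [S.card_eq_index_normalizer] at hmod
    set NH := Subgroup.normalizer ((S : Subgroup ↥H) : Set ↥H) with hNH
    have hle : Nat.card NH ∣ 63 := by
      rw [← hN, ← Subgroup.card_map_of_injective H.subtype_injective]
      exact Subgroup.card_dvd_of_le (Subgroup.le_normalizer_map _)
    have h21 : 21 ∣ Nat.card NH := by
      refine Nat.Coprime.mul_dvd_of_dvd_of_dvd (m := 3) (n := 7) (by norm_num) ?_ ?_
      · rw [← h.card_center, ← Nat.card_congr (Subgroup.subgroupOfEquivOfLe hZ).toEquiv]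
        refine Subgroup.card_dvd_of_le ?_
        intro z hz
        rw [hNH, Subgroup.mem_normalizer_iff]
        intro s
        have : z * s * z⁻¹ = s := Subtype.ext (by
          show (z : G) * s * (z : G)⁻¹ = s
          have h' : (s : G) * (z : G) = (z : G) * s := Subgroup.mem_center_iff.mp hz (s : G)
          rw [← h']
          group)
        rw [this]
      · rw [← hS7]
        exact Subgroup.card_dvd_of_le Subgroup.le_normalizer
    have hmul2 := NH.card_mul_index
    have : Nat.card NH = 21 ∨ Nat.card NH = 63 := by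
      have hle' := Nat.le_of_dvd (by norm_num) hle
      obtain ⟨c, hc⟩ := h21
      rw [hc] at hle hle'
      have : c ≤ 3 := by omega
      interval_cases c <;> first | (left; omega) | (right; omega) | norm_num at hle
    rcases this with e | e
    · left
      rw [e] at hmul2
      rw [← hmul2, Nat.mul_mod_right, Nat.mul_div_cancel_left _ (by norm_num : 0 < 21)]
      exact ⟨rfl, hmod⟩
    · right
      rw [e] at hmul2
      rw [← hmul2, Nat.mul_mod_right, Nat.mul_div_cancel_left _ (by norm_num : 0 < 63)]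
      exact ⟨rfl, hmod⟩
  refine index_numeric H.index hlt O (by omega) hk15 ⟨Nat.card H, by rw [← hmul, mul_comm]⟩
    ⟨?_, ?_, ?_, ?_, ?_, hcard ▸ h5H, ?_⟩
  · rw [← hcard, ← hOS]
    exact mul_dvd_mul_right hS3 _
  · rw [← hcard, ← hOS]
    exact mul_dvd_mul_right hS3000 _
  · intro hd
    simpa using hRdvd 3 (by rw [hcard]; simpa using hd)
  · intro hd
    simpa using hRdvd 2 (by rw [hcard]; simpa using hd)
  · intro hd
    simpa using hRdvd 1 (by rw [hcard]; simpa using hd)
  · rw [← hcard]
    exact h7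

end CfsgLib.UnitFive
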