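import Cfsg.Prelude.Def_ClassicalGeometry
import Cfsg.Agent.Eq.Def_ClassicalGeometry
import Cfsg.Agent.Classical.Unitary.Center
import Cfsg.Agent.Classical.Unitary.Simple
import Cfsg.Agent.Classical.Unitary.InvolutionsThree
import Cfsg.Agent.S0782

/-!
`SU₃(5)` on its 126 isotropic lines: a non-trivial 5-element fixes at most one of them, and no
involution commutes with an element of order 7.
-/

set_option autoImplicit false

namespace CfsgLib.UnitFive

open Cfsg CfsgLib.Unitary

variable {F : Type*} [Field F] [Fintype F]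

theorem card_F (hF : Fintype.card F = 25) : Fintype.card F = 5 ^ 2 := by rw [hF]; norm_num

/-- Isotropic lines. -/
def IsoLine (F : Type*) [Field F] : Type _ :=
  {L : Submodule F (Fin 3 → F) //
    ∃ x, x ≠ 0 ∧ hermForm 3 F 5 x x = 0 ∧ L = Submodule.span F {x}}

instance : Finite (IsoLine F) :=
  haveI : Finite (Submodule F (Fin 3 → F)) := Finite.of_injective _ SetLike.coe_injective
  Subtype.finite

/-- The linear map of an element of `SU`. -/
def linMap (g : ↥(SU 3 F 5)) : (Fin 3 → F) →ₗ[F] (Fin 3 → F) :=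
  ((g : Matrix.SpecialLinearGroup (Fin 3) F) : Matrix (Fin 3) (Fin 3) F).mulVecLin

omit [Fintype F] in
theorem linMap_apply (g : ↥(SU 3 F 5)) (x : Fin 3 → F) : linMap g x = sv g x := rfl

instance : MulAction ↥(SU 3 F 5) (IsoLine F) where
  smul g L := ⟨L.1.map (linMap g), by
    obtain ⟨x, hx0, hx, hL⟩ := L.2
    refine ⟨sv g x, fun h => hx0 ?_, herm_sv_self_eq_zero g hx, ?_⟩
    · rw [← sv_inv_sv g x, h, show (0 : Fin 3 → F) = (0 : F) • x by simp, sv_smul]
      simp
    · rw [hL, Submodule.map_span, Set.image_singleton, linMap_apply]⟩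
  one_smul L := Subtype.ext (by
    show L.1.map (linMap (1 : ↥(SU 3 F 5))) = L.1
    rw [show linMap (1 : ↥(SU 3 F 5)) = LinearMap.id from LinearMap.ext fun x => sv_one x,
      Submodule.map_id])
  mul_smul g h L := Subtype.ext (by
    show L.1.map (linMap (g * h)) = (L.1.map (linMap h)).map (linMap g)
    rw [← Submodule.map_comp]
    exact congrArg (fun f => L.1.map f) (LinearMap.ext fun x => sv_mul g h x))

theorem isPretransitive_isoLine (hF : Fintype.card F = 25) :
    MulAction.IsPretransitive ↥(SU 3 F 5) (IsoLine F) := by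
  refine ⟨fun L M => ?_⟩
  obtain ⟨x, hx0, hx, hL⟩ := L.2
  obtain ⟨y, hy0, hy, hM⟩ := M.2
  obtain ⟨A, hA⟩ := exists_SU_map_isotropic (card_F hF) le_rfl hx0 hy0 hx hy
  refine ⟨A, Subtype.ext ?_⟩
  show L.1.map (linMap A) = M.1
  rw [hL, hM, Submodule.map_span, Set.image_singleton, linMap_apply, hA]

theorem card_SU_five (hF : Fintype.card F = 25) : Nat.card ↥(SU 3 F 5) = 378000 := by
  have h := card_SU (card_F hF) 3 (by norm_num)
  simp [Finset.prod_range_succ, show ¬ Even 1 by decide, show Even 2 by decide] at h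
  omega

theorem card_center_five (hF : Fintype.card F = 25) :
    Nat.card (Subgroup.center ↥(SU 3 F 5)) = 3 := by
  rw [card_center_SU (card_F hF) (by norm_num)]; norm_num

theorem nonempty_isoLine (hF : Fintype.card F = 25) : Nonempty (IsoLine F) := by
  obtain ⟨g, hg, -⟩ := exists_orthonorm_extend_univ (card_F hF) (n := 3)
    (f := fun i : Fin 0 => (Fin.elim0 i : Fin 3 → F)) (fun i => Fin.elim0 i)
  obtain ⟨c, hc⟩ := exists_norm_eq (card_F hF) (a := (-1 : F)) (by norm_num)
  refine ⟨⟨_, g 0 + c • g 1, fun h => ?_, ?_, rfl⟩⟩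
  · have h0 := congrArg (fun v => hermForm 3 F 5 v (g 0)) h
    simp [herm_add_left, herm_smul_left, hg 0 0, hg 1 0, herm_zero_left] at h0
  · simp only [herm_add_left, herm_add_right (card_F hF), herm_smul_left, herm_smul_right, hg 0 0,
      hg 0 1, hg 1 0, hg 1 1]
    simp only [↓reduceIte, Fin.zero_eq_one_iff, OfNat.ofNat_ne_one, Fin.one_eq_zero_iff, mul_zero,
      mul_one, add_zero, zero_add]
    rw [← pow_succ, hc]
    ring

theorem card_stabilizer_isoLine (hF : Fintype.card F = 25) (L : IsoLine F) :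
    Nat.card (MulAction.stabilizer ↥(SU 3 F 5) L) = 3000 := by
  obtain ⟨x, hx0, hx, hL⟩ := L.2
  have hfr : Module.finrank F L.1 = 1 := by rw [hL]; exact finrank_span_singleton hx0
  have hiso : ∀ u ∈ L.1, ∀ v ∈ L.1, hermForm 3 F 5 u v = 0 := by
    intro u hu v hv
    rw [hL, Submodule.mem_span_singleton] at hu hv
    obtain ⟨a, rfl⟩ := hu
    obtain ⟨b, rfl⟩ := hv
    rw [herm_smul_left, herm_smul_right, hx, mul_zero, mul_zero]
  have h := Cfsg.Agent.S0782.result (card_F hF) 3 1 (by norm_num) (by norm_num) L.1 hfr hiso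
  have heq : (Cfsg.stabilizing (Cfsg.slToMat 3 F) (L.1 : Set (Fin 3 → F))).subgroupOf (Cfsg.SU 3 F 5)
      = MulAction.stabilizer ↥(SU 3 F 5) L := by
    ext g
    rw [Subgroup.mem_subgroupOf, MulAction.mem_stabilizer_iff]
    constructor
    · intro hg
      apply Subtype.ext
      show L.1.map (linMap g) = L.1
      ext v
      rw [Submodule.mem_map]
      constructor
      · rintro ⟨u, hu, rfl⟩
        exact (hg u).mp hu
      · intro hv
        refine ⟨sv g⁻¹ v, (hg _).mpr ?_, sv_sv_inv g v⟩
        show sv g (sv g⁻¹ v) ∈ L.1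
        rwa [sv_sv_inv]
    · intro hg v
      have hg' : L.1.map (linMap g) = L.1 := congrArg Subtype.val hg
      constructor
      · intro hv
        have := Submodule.mem_map_of_mem (f := linMap g) hv
        rwa [hg'] at this
      · intro hv
        have hv' : sv g v ∈ L.1.map (linMap g) := by rw [hg']; exact hv
        obtain ⟨u, hu, huv⟩ := Submodule.mem_map.mp hv'
        rw [linMap_apply] at huv
        rwa [← sv_inv_sv g v, ← huv, sv_inv_sv]
  rw [heq] at h
  norm_num at h
  show Nat.card {g // g • L = L} = 3000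
  omega

theorem card_isoLine (hF : Fintype.card F = 25) : Nat.card (IsoLine F) = 126 := by
  haveI := isPretransitive_isoLine hF
  obtain ⟨L⟩ := nonempty_isoLine hF
  have h := (MulAction.stabilizer ↥(SU 3 F 5) L).card_mul_index
  rw [card_stabilizer_isoLine hF L, card_SU_five hF,
    MulAction.index_stabilizer_of_transitive] at h
  omega

/-- In characteristic five an eigenvalue of an element of 5-power order is one. -/
theorem eq_one_of_pow_five (hF : Fintype.card F = 25) {a : F} {j : ℕ} (h : a ^ 5 ^ j = 1) :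
    a = 1 := by
  haveI : Fact (Nat.Prime 5) := ⟨by norm_num⟩
  haveI : CharP F 5 := by
    obtain ⟨p, e, hp, hc, he, hpe⟩ := exists_char (card_F hF)
    have : p = 5 := (Nat.prime_dvd_prime_iff_eq hp (by norm_num)).mp
      (hpe.symm ▸ dvd_pow_self p he.ne')
    rwa [this] at hc
  have h2 : (a - 1) ^ 5 ^ j = 0 := by rw [sub_pow_char_pow, h, one_pow, sub_self]
  exact sub_eq_zero.mp (pow_eq_zero_iff (by positivity) |>.mp h2)

theorem sv_pow_eigen (g : ↥(SU 3 F 5)) {v : Fin 3 → F} {a : F} (h : sv g v = a • v) :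
    ∀ k : ℕ, sv (g ^ k) v = a ^ k • v := by
  intro k
  induction k with
  | zero => simp
  | succ k ih => rw [pow_succ, sv_mul, h, sv_smul, ih, smul_smul, pow_succ']

/-- A non-trivial element of 5-power order fixes at most one isotropic line. -/
theorem isoLine_unique (hF : Fintype.card F = 25) {u : ↥(SU 3 F 5)} {j : ℕ}
    (hu : u ^ 5 ^ j = 1) (hu1 : u ≠ 1) {L M : IsoLine F} (hL : u • L = L) (hM : u • M = M) :
    L = M := by
  by_contra hne
  have eig : ∀ {N : Submodule F (Fin 3 → F)} {x : Fin 3 → F}, x ≠ 0 →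
      N = Submodule.span F {x} → sv u x ∈ N → sv u x = x := by
    intro N x hx0 hN hmem
    rw [hN, Submodule.mem_span_singleton] at hmem
    obtain ⟨a, ha⟩ := hmem
    have h1 := sv_pow_eigen u ha.symm (5 ^ j)
    rw [hu, sv_one] at h1
    have h2 : a ^ 5 ^ j = 1 := by
      have h3 : (a ^ 5 ^ j - 1) • x = 0 := by rw [sub_smul, one_smul, ← h1, sub_self]
      exact sub_eq_zero.mp ((smul_eq_zero.mp h3).resolve_right hx0)
    rw [← ha, eq_one_of_pow_five hF h2, one_smul]
  obtain ⟨x, hx0, hx, hLx⟩ := L.2
  obtain ⟨y, hy0, hy, hMy⟩ := M.2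
  have hfix : ∀ (N : IsoLine F) (z : Fin 3 → F), u • N = N →
      N.1 = Submodule.span F {z} → sv u z ∈ N.1 := by
    intro N z hN hNz
    have : linMap u z ∈ (u • N).1 :=
      Submodule.mem_map_of_mem (hNz ▸ Submodule.mem_span_singleton_self z)
    rwa [hN] at this
  have hux := eig hx0 hLx (hfix L x hL hLx)
  have huy := eig hy0 hMy (hfix M y hM hMy)
  have hind : LinearIndependent F ![x, y] := by
    rw [LinearIndependent.pair_iff' hx0]
    intro a ha
    apply hne
    apply Subtype.ext
    rw [hLx, hMy, ← ha, Submodule.span_singleton_smul_eq (IsUnit.mk0 a (by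
      rintro rfl; exact hy0 (by rw [← ha, zero_smul])))]
  set W := Submodule.span F (Set.range ![x, y]) with hW
  have hW2 : Module.finrank F W = 2 := by rw [hW, finrank_span_eq_card hind, Fintype.card_fin]
  have hd1 := finrank_perp_add (card_F hF) W
  have hxW : x ∈ W := Submodule.subset_span ⟨0, rfl⟩
  have hyW : y ∈ W := Submodule.subset_span ⟨1, rfl⟩
  have hperp : ∀ d, d ∈ perp 5 W ↔ hermForm 3 F 5 d x = 0 ∧ hermForm 3 F 5 d y = 0 := by
    intro d
    refine ⟨fun h => ⟨h x hxW, h y hyW⟩, fun h v hv => ?_⟩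
    induction hv using Submodule.span_induction with
    | mem v hv =>
      obtain ⟨i, rfl⟩ := hv
      fin_cases i
      · exact h.1
      · exact h.2
    | zero => exact herm_zero_right (card_F hF) d
    | add a b _ _ iha ihb => rw [herm_add_right (card_F hF), iha, ihb, add_zero]
    | smul c a _ iha => rw [herm_smul_right, iha, mul_zero]
  obtain ⟨w, hw0, hw⟩ := (finrank_eq_one_iff' (K := F) (V := ↥(perp 5 W))).mp (by omega)
  have huw : sv u w.1 = w.1 := by
    refine eig (N := perp 5 W) (fun h => hw0 (Subtype.ext h)) ?_ ?_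
    · refine le_antisymm (fun d hd => ?_) ((Submodule.span_singleton_le_iff_mem _ _).mpr w.2)
      obtain ⟨c, hc⟩ := hw ⟨d, hd⟩
      exact Submodule.mem_span_singleton.mpr ⟨c, congrArg Subtype.val hc⟩
    · rw [hperp]
      have h := (hperp w.1).mp w.2
      constructor
      · rw [← hux, sv_herm, h.1]
      · rw [← huy, sv_herm, h.2]
  -- every vector is fixed
  apply hu1
  refine sv_ext fun v => ?_
  have hd : sv u v - v ∈ perp 5 W := by
    rw [hperp]
    constructor
    · rw [herm_sub_left]; nth_rewrite 1 [← hux]; rw [sv_herm, sub_self]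
    · rw [herm_sub_left]; nth_rewrite 1 [← huy]; rw [sv_herm, sub_self]
  obtain ⟨c, hc⟩ := hw ⟨_, hd⟩
  have hc' : c • w.1 = sv u v - v := congrArg Subtype.val hc
  have hk : ∀ k : ℕ, sv (u ^ k) v = v + ((k : F) * c) • w.1 := by
    intro k
    induction k with
    | zero => simp
    | succ k ih =>
      rw [pow_succ', sv_mul, ih, sv_add, sv_smul, huw, Nat.cast_succ, add_mul, one_mul, add_smul,
        show sv u v = v + c • w.1 by rw [hc']; abel]
      abel
  have hww : hermForm 3 F 5 w.1 w.1 ≠ 0 := by
    intro h0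
    have hmem : ∀ d : Fin 3 → F, hermForm 3 F 5 w.1 d = 0 := by
      intro d
      have hwx : ∀ v ∈ W ⊔ perp 5 W, hermForm 3 F 5 w.1 v = 0 := by
        intro v hv
        obtain ⟨a, ha, b, hb, rfl⟩ := Submodule.mem_sup.mp hv
        obtain ⟨e, he⟩ := hw ⟨b, hb⟩
        rw [herm_add_right (card_F hF), w.2 a ha, ← show e • w.1 = b from congrArg Subtype.val he,
          herm_smul_right, h0, mul_zero, add_zero]
      refine hwx d ?_
      rw [show W ⊔ perp 5 W = ⊤ from ?_]
      · exact Submodule.mem_top
      · apply Submodule.eq_top_of_finrank_eq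
        have hdis : W ⊓ perp 5 W = ⊥ := by
          rw [← isNondeg_iff_disjoint]
          intro a ha hall
          have hxy : hermForm 3 F 5 x y ≠ 0 := by
            intro h0'
            have hsub : W ≤ perp 5 W := by
              rw [hW, Submodule.span_le]
              rintro _ ⟨i, rfl⟩
              rw [SetLike.mem_coe, hperp]
              fin_cases i
              · exact ⟨hx, h0'⟩
              · exact ⟨herm_eq_zero_comm (card_F hF) h0', hy⟩
            have := Submodule.finrank_mono hsub
            omega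
          rw [hW, Submodule.mem_span_range_iff_exists_fun] at ha
          obtain ⟨s, rfl⟩ := ha
          have e1 := hall x hxW
          have e2 := hall y hyW
          simp [Fin.sum_univ_two, herm_add_left, herm_smul_left, hx, hy, hxy] at e1 e2 ⊢
          rcases e1 with e1 | e1
          · simp [e1, e2]
          · exact absurd (herm_eq_zero_comm (card_F hF) e1) hxy
        have hsum := Submodule.finrank_sup_add_finrank_inf_eq W (perp 5 W)
        rw [hdis, finrank_bot] at hsum
        rw [Module.finrank_fin_fun]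
        omega
    exact hw0 (Subtype.ext (herm_nondeg (card_F hF) _ hmem))
  have hcw : c = 0 := by
    have h1 := sv_herm u v w.1
    rw [huw, show sv u v = v + c • w.1 by rw [hc']; abel, herm_add_left, herm_smul_left] at h1
    exact (mul_eq_zero.mp (by linear_combination h1)).resolve_right hww
  rw [sv_one, show sv u v = v + c • w.1 by rw [hc']; abel, hcw, zero_smul, add_zero]

/-- No involution commutes with an element of order seven. -/
theorem not_commute_seven (hF : Fintype.card F = 25) {y t : ↥(SU 3 F 5)} (hy : orderOf y = 7)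
    (ht : orderOf t = 2) : ¬ Commute y t := by
  intro hc
  have hF' := card_F hF
  have h2 : (2 : F) ≠ 0 := two_ne_zero_of_odd hF' (by decide)
  obtain ⟨v, rfl⟩ := exists_eq_refl hF' h2 t
    (fun h => by rw [h, orderOf_one] at ht; norm_num at ht)
    (by rw [← sq, ← ht, pow_orderOf_eq_one])
  let P := MulAction.stabilizer (ConjAct ↥(SU 3 F 5)) (refl hF' v)
  have horb : ∀ x : ↥(SU 3 F 5), x ≠ 1 ∧ x * x = 1 ↔
      x ∈ MulAction.orbit (ConjAct ↥(SU 3 F 5)) (refl hF' v) := by
    intro x
    constructor
    · rintro ⟨hx1, hx2⟩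
      obtain ⟨w, rfl⟩ := exists_eq_refl hF' h2 x hx1 hx2
      obtain ⟨A, hA⟩ := exists_SU_map_orthonorm hF' (k := 1) (f := fun _ => v.1) (f' := fun _ => w.1)
        (fun i j => by simp [Subsingleton.elim i j, v.2]) (fun i j => by simp [Subsingleton.elim i j, w.2])
        (by norm_num)
      refine ⟨ConjAct.toConjAct A, ?_⟩
      show ConjAct.toConjAct A • refl hF' v = refl hF' w
      rw [ConjAct.smul_def, ConjAct.ofConjAct_toConjAct, refl_conj]
      congr 1
      exact Subtype.ext (hA 0)
    · rintro ⟨g, rfl⟩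
      simp only [ConjAct.smul_def, refl_conj]
      exact ⟨refl_ne_one hF' h2 _, refl_mul_self hF' _⟩
  have hcard : Nat.card (MulAction.orbit (ConjAct ↥(SU 3 F 5)) (refl hF' v)) = 525 := by
    rw [← Nat.card_congr (Equiv.subtypeEquivRight horb), card_involutions hF' h2]
    norm_num
  have h := P.card_mul_index
  rw [MulAction.index_stabilizer, ← Nat.card_coe_set_eq, hcard,
    Nat.card_congr (ConjAct.ofConjAct (G := ↥(SU 3 F 5))).toEquiv, card_SU_five hF] at h
  have hyP : ConjAct.toConjAct y ∈ P := by
    rw [MulAction.mem_stabilizer_iff, ConjAct.smul_def, ConjAct.ofConjAct_toConjAct, hc.eq]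
    group
  have h7 : 7 ∣ Nat.card P := by
    have := Subgroup.orderOf_dvd_natCard P hyP
    rwa [MulEquiv.orderOf_eq (ConjAct.toConjAct : ↥(SU 3 F 5) ≃* _), hy] at this
  omega

end CfsgLib.UnitFive
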