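import Cfsg.Agent.UnitFive.Check
import Cfsg.Agent.UnitFive.Geometry

/-!
A proper subgroup of `SU₃(5)` of order divisible by 7560, from explicit matrices.
-/

set_option autoImplicit false

namespace CfsgLib.UnitFive

open Cfsg CfsgLib.Unitary

variable {F : Type*} [Field F] [Fintype F]

/-- The embedding of the computable field into `F`. -/
theorem exists_embedding (hF : Fintype.card F = 25) :
    ∃ φ : R25 →+* F, Function.Injective φ := by
  haveI : Fact (Nat.Prime 5) := ⟨by norm_num⟩
  obtain ⟨p, e, hp, hc, he, hpe⟩ := exists_char (card_F hF)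
  have hp5 : p = 5 := (Nat.prime_dvd_prime_iff_eq hp (by norm_num)).mp
    (hpe.symm ▸ dvd_pow_self p he.ne')
  haveI : CharP F 5 := hp5 ▸ hc
  letI : Algebra (ZMod 5) F := ZMod.algebra F 5
  have hring : ringChar F ≠ 2 := by rw [ringChar.eq F 5]; norm_num
  have h20 : ((2 : ℕ) : F) ≠ 0 := by
    rw [Ne, CharP.cast_eq_zero_iff F 5]; norm_num
  have hsq : IsSquare ((2 : ℕ) : F) := by
    rw [FiniteField.isSquare_iff hring h20, hF]
    rw [← Nat.cast_pow, ← Nat.cast_one, CharP.natCast_eq_natCast F 5]
    decide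
  obtain ⟨s, hs⟩ := hsq
  have hs' : s * s = (2 : ZMod 5) • (1 : F) + (0 : ZMod 5) • s := by
    rw [zero_smul, add_zero, Algebra.smul_def, mul_one, map_ofNat, ← hs, Nat.cast_ofNat]
  let φ := (QuadraticAlgebra.lift ⟨s, hs'⟩).toRingHom
  refine ⟨φ, (injective_iff_map_eq_zero φ).mpr ?_⟩
  rintro ⟨a, b⟩ hab
  by_contra hne
  obtain ⟨c, d, hcd⟩ := exists_inv a b (by
    intro h
    rw [Prod.mk.injEq] at h
    exact hne (by rw [h.1, h.2]; rfl))
  have := congrArg φ hcd
  rw [map_mul, hab, zero_mul, map_one] at this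
  exact zero_ne_one this

/-- The matrix of an element of `SU`. -/
def matF (g : ↥(SU 3 F 5)) : Matrix (Fin 3) (Fin 3) F :=
  ((g : Matrix.SpecialLinearGroup (Fin 3) F) : Matrix (Fin 3) (Fin 3) F)

theorem matF_injective : Function.Injective (matF (F := F)) :=
  fun _ _ h => Subtype.ext (Subtype.ext h)

omit [Fintype F] in
theorem matF_mul (g h : ↥(SU 3 F 5)) : matF (g * h) = matF g * matF h := rfl

theorem exists_SU_map (hF : Fintype.card F = 25) (φ : R25 →+* F) (M : M25) (hdet : M.det = 1)
    (hu : ∀ i j : Fin 3,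
      ∑ k, M k i * (M k j * M k j * M k j * M k j * M k j) = if i = j then 1 else 0) :
    ∃ g : ↥(SU 3 F 5), matF g = φ.mapMatrix M := by
  have hd : (φ.mapMatrix M).det = 1 := by rw [← RingHom.map_det, hdet, map_one]
  refine ⟨⟨⟨φ.mapMatrix M, hd⟩, mem_SU.2 ((preserves_iff_orthonorm_cols (card_F hF) _).2 ?_)⟩, rfl⟩
  intro i j
  have h := congrArg φ (hu i j)
  rw [map_sum, apply_ite φ, map_one, map_zero] at h
  rw [← h]
  refine Finset.sum_congr rfl fun k _ => ?_
  simp only [cols, RingHom.mapMatrix_apply, Matrix.map_apply, map_mul]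
  ring

/-- A finite table of elements closed under multiplication is a subgroup. -/
theorem card_dvd_of_table {G : Type*} [Group G] [Finite G] {n : ℕ} [NeZero n] (K : Subgroup G)
    (e : Fin n → G) (t : Fin n → Fin n → Fin n) (hinj : Function.Injective e) (h0 : e 0 = 1)
    (hmul : ∀ i j, e i * e j = e (t i j)) (hK : ∀ i, e i ∈ K) : n ∣ Nat.card K := by
  let M : Submonoid G :=
    { carrier := Set.range e
      one_mem' := ⟨0, h0⟩
      mul_mem' := by
        rintro _ _ ⟨i, rfl⟩ ⟨j, rfl⟩
        exact ⟨t i j, (hmul i j).symm⟩ }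
  let S : Subgroup G :=
    { M with
      inv_mem' := fun {x} hx => by
        rw [inv_eq_of_mul_eq_one_right (b := x ^ (orderOf x - 1))]
        · exact M.pow_mem hx _
        · rw [← pow_succ', Nat.sub_add_cancel (orderOf_pos x), pow_orderOf_eq_one] }
  have hS : Nat.card S = n := by
    have : Nat.card S = Nat.card (Set.range e) := rfl
    rw [this, Nat.card_range_of_injective hinj, Nat.card_eq_fintype_card, Fintype.card_fin]
  rw [← hS]
  refine Subgroup.card_dvd_of_le ?_
  rintro _ ⟨i, rfl⟩
  exact hK i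

/-- A vector lies on one of the 105 lines. -/
def OnOrbit (φ : R25 →+* F) (x : Fin 3 → F) : Prop :=
  ∃ i : Fin 105, ∃ c : F, c ≠ 0 ∧ x = c • (φ ∘ orbVec i)

theorem exists_proper_large (hF : Fintype.card F = 25) :
    ∃ K : Subgroup ↥(SU 3 F 5), K.index ∣ 50 ∧ K ⊔ Subgroup.center ↥(SU 3 F 5) ≠ ⊤ := by
  classical
  have hF' := card_F hF
  obtain ⟨φ, hφ⟩ := exists_embedding hF
  obtain ⟨A, hA⟩ := exists_SU_map hF φ genA genA_det genA_unitary
  obtain ⟨B, hB⟩ := exists_SU_map hF φ genB genB_det genB_unitary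
  let K := Subgroup.closure ({A, B} : Set ↥(SU 3 F 5))
  have hAK : A ∈ K := Subgroup.subset_closure (by simp)
  have hBK : B ∈ K := Subgroup.subset_closure (by simp)
  have hnodes : ∀ i, ∃ g ∈ K, matF g = φ.mapMatrix (nodes i) := by
    intro i
    induction i using WellFoundedLT.induction with
    | _ i ih =>
      by_cases h0 : i = 0
      · exact ⟨1, one_mem K, by rw [h0, nodes_zero, map_one]; rfl⟩
      · obtain ⟨hlt, he⟩ := nodes_step i h0
        obtain ⟨g, hgK, hg⟩ := ih _ hlt
        rw [he, map_mul]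
        cases (steps i).2
        · exact ⟨g * B, mul_mem hgK hBK, by rw [matF_mul, hg, hB]; rfl⟩
        · exact ⟨g * A, mul_mem hgK hAK, by rw [matF_mul, hg, hA]; rfl⟩
  choose el helK hel using hnodes
  have hmap : Function.Injective (φ.mapMatrix : M25 → Matrix (Fin 3) (Fin 3) F) :=
    fun X Y h => Matrix.ext fun i j => hφ (congrFun (congrFun h i) j)
  have h8 : 8 ∣ Nat.card K := by
    refine card_dvd_of_table K (fun i => el (eightIdx i)) eightTable ?_ ?_ ?_ (fun i => helK _)
    · intro i j h
      exact eight_inj i j (hmap (by rw [← hel, ← hel]; exact congrArg matF h))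
    · exact matF_injective (by rw [hel, eight_zero, map_one]; rfl)
    · intro i j
      exact matF_injective (by rw [matF_mul, hel, hel, hel, ← map_mul, eight_mul])
  have h27 : 27 ∣ Nat.card K := by
    refine card_dvd_of_table K (fun i => el (twentySevenIdx i)) twentySevenTable ?_ ?_ ?_
      (fun i => helK _)
    · intro i j h
      exact twentySeven_inj i j (hmap (by rw [← hel, ← hel]; exact congrArg matF h))
    · exact matF_injective (by rw [hel, twentySeven_zero, map_one]; rfl)
    · intro i j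
      exact matF_injective (by rw [matF_mul, hel, hel, hel, ← map_mul, twentySeven_mul])
  have hprime : ∀ (p : ℕ), p.Prime → ∀ i, nodes i ^ p = 1 → nodes i ≠ 1 → p ∣ Nat.card K := by
    intro p hp i hpow hne
    haveI : Fact p.Prime := ⟨hp⟩
    let toM : ↥(SU 3 F 5) →* Matrix (Fin 3) (Fin 3) F :=
      { toFun := matF, map_one' := rfl, map_mul' := matF_mul }
    have hp1 : el i ^ p = 1 := matF_injective (by
      show toM (el i ^ p) = toM 1
      rw [map_pow, map_one]
      show matF (el i) ^ p = 1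
      rw [hel, ← map_pow, hpow, map_one])
    have hne1 : el i ≠ 1 := fun h => hne (hmap (by rw [← hel, h, map_one]; rfl))
    have := Subgroup.orderOf_dvd_natCard K (helK i)
    rwa [orderOf_eq_prime hp1 hne1] at this
  have h5 := hprime 5 (by norm_num) _ order_five.1 order_five.2
  have h7 := hprime 7 (by norm_num) _ order_seven.1 order_seven.2
  refine ⟨K, ?_, ?_⟩
  · have h7560 : 7560 ∣ Nat.card K := by
      have e : 7560 = 8 * 27 * (5 * 7) := by norm_num
      rw [e]
      exact Nat.Coprime.mul_dvd_of_dvd_of_dvd (by norm_num)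
        (Nat.Coprime.mul_dvd_of_dvd_of_dvd (by norm_num) h8 h27)
        (Nat.Coprime.mul_dvd_of_dvd_of_dvd (by norm_num) h5 h7)
    obtain ⟨m, hm⟩ := h7560
    have h := K.card_mul_index
    rw [card_SU_five hF, hm] at h
    exact Dvd.intro_left m (by linarith)
  -- invariance of the lines
  have hgen : ∀ (g : ↥(SU 3 F 5)) (M : M25) (img : Fin 105 → Fin 105 × R25),
      matF g = φ.mapMatrix M → (∀ i, M.mulVec (orbVec i) = (img i).2 • orbVec (img i).1) →
      (∀ i, (img i).2 ≠ 0) → ∀ x, OnOrbit φ x → OnOrbit φ (sv g x) := by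
    rintro g M img hg himg hne x ⟨i, c, hc, rfl⟩
    refine ⟨(img i).1, c * φ (img i).2, mul_ne_zero hc (fun h => hne i (hφ (by rw [h, map_zero]))), ?_⟩
    rw [sv_smul, mul_smul]
    congr 1
    funext k
    have h1 : sv g (φ ∘ orbVec i) k = φ (M.mulVec (orbVec i) k) := by
      rw [RingHom.map_mulVec]
      show (matF g).mulVec _ k = _
      rw [hg]; rfl
    rw [h1, himg i]
    simp [map_mul]
  -- the elements preserving the set form a subgroup
  let M : Submonoid ↥(SU 3 F 5) :=
    { carrier := {g | ∀ x, OnOrbit φ x → OnOrbit φ (sv g x)}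
      one_mem' := fun x hx => by rwa [sv_one]
      mul_mem' := fun {g h} hg hh x hx => by rw [sv_mul]; exact hg _ (hh _ hx) }
  let T : Subgroup ↥(SU 3 F 5) :=
    { M with
      inv_mem' := fun {g} hg => by
        rw [inv_eq_of_mul_eq_one_right (b := g ^ (orderOf g - 1))]
        · exact M.pow_mem hg _
        · rw [← pow_succ', Nat.sub_add_cancel (orderOf_pos g), pow_orderOf_eq_one] }
  have hKT : K ⊔ Subgroup.center ↥(SU 3 F 5) ≤ T := by
    refine sup_le ((Subgroup.closure_le _).mpr ?_) ?_
    · rintro g (rfl | rfl)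
      · exact hgen _ genA imgA hA genA_orbit fun i => (img_ne_zero i).1
      · exact hgen _ genB imgB hB genB_orbit fun i => (img_ne_zero i).2
    · intro z hz
      rintro x ⟨i, c, hc, rfl⟩
      obtain ⟨a, ha⟩ := (mem_center_SU_iff hF' (by norm_num) z).1 hz
      have ha0 : a ≠ 0 := by
        intro h0
        have hdet := (z : Matrix.SpecialLinearGroup (Fin 3) F).2
        rw [ha, h0, map_zero, Matrix.det_zero] at hdet
        exact zero_ne_one hdet
      refine ⟨i, a * c, mul_ne_zero ha0 hc, ?_⟩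
      show (matF z).mulVec _ = _
      rw [show matF z = Matrix.scalar (Fin 3) a from ha, Matrix.scalar_apply]
      funext k
      simp [Matrix.mulVec_diagonal, mul_assoc]
  intro htop
  have hnorm : ∀ v : Fin 3 → R25, ∑ k, v k * (v k * v k * v k * v k * v k) = 1 →
      hermForm 3 F 5 (φ ∘ v) (φ ∘ v) = 1 := by
    intro v hv
    have h := congrArg φ hv
    rw [map_sum, map_one] at h
    rw [← h]
    refine Finset.sum_congr rfl fun k _ => ?_
    simp only [Function.comp_apply, map_mul]
    ring
  obtain ⟨g, hg⟩ := exists_SU_map_orthonorm hF' (k := 1) (f := fun _ => φ ∘ orbVec 0)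
    (f' := fun _ => φ ∘ outVec)
    (fun i j => by simp [Subsingleton.elim i j, hnorm _ (orbVec_norm 0)])
    (fun i j => by simp [Subsingleton.elim i j, hnorm _ outVec_norm]) (by norm_num)
  have hgT : g ∈ T := hKT (htop ▸ Subgroup.mem_top g)
  obtain ⟨i, c, -, hout⟩ := hgT (φ ∘ orbVec 0) ⟨0, 1, one_ne_zero, (one_smul F _).symm⟩
  rw [hg 0] at hout
  obtain ⟨a, b, hab⟩ := outVec_indep i
  refine hab (hφ ?_)
  have ea := congrFun hout a
  have eb := congrFun hout b
  simp only [Function.comp_apply, Pi.smul_apply, smul_eq_mul] at ea eb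
  rw [map_sub, map_mul, map_mul, map_zero, ea, eb]
  ring

end CfsgLib.UnitFive
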